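import Mathlib
import Cfsg.Agent.Hall.Basic

/-!
P. Hall: the number of Hall subgroups of a solvable group is a product of chief-factor divisors
congruent to one.
-/

set_option autoImplicit false

namespace Cfsg.Agent.HallCount

open scoped Pointwise commutatorElement

universe u

/-- A number allowed as a factor. -/
def GoodFactor (G : Type*) [Group G] (m f : ℕ) : Prop :=
  (∃ q e : ℕ, q.Prime ∧ f = q ^ e) ∧
    (∃ K L : Subgroup G, K.Normal ∧ L.Normal ∧ K < L ∧
      (∀ M : Subgroup G, M.Normal → K ≤ M → M ≤ L → M = K ∨ M = L) ∧ f ∣ K.relIndex L) ∧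
    (∃ q : ℕ, q.Prime ∧ q ∣ m ∧ f ≡ 1 [MOD q])

/-- A finite solvable nontrivial group has a normal subgroup of prime index. -/
theorem exists_normal_prime_index (G : Type*) [Group G] [Finite G] [Nontrivial G]
    [Group.IsSolvable G] : ∃ (M : Subgroup G) (r : ℕ), M.Normal ∧ r.Prime ∧ M.index = r := by
  have hne : commutator G ≠ ⊤ := (Group.IsSolvable.commutator_lt_top_of_nontrivial G).ne
  obtain ⟨M, hM, hle⟩ := (eq_top_or_exists_le_coatom (commutator G)).resolve_left hne
  haveI hMn : M.Normal := ⟨fun x hx g => by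
    have h : ⁅g, x⁆ ∈ M := hle (Subgroup.commutator_mem_commutator (Subgroup.mem_top g)
      (Subgroup.mem_top x))
    simpa [commutatorElement_def, mul_assoc] using M.mul_mem h hx⟩
  have hq1 : Nat.card (G ⧸ M) ≠ 1 := fun h =>
    hM.1 (Subgroup.index_eq_one.1 (by rwa [Subgroup.index]))
  obtain ⟨r, hr, hrd⟩ := Nat.exists_prime_and_dvd hq1
  haveI := Fact.mk hr
  obtain ⟨x, hx⟩ := exists_prime_orderOf_dvd_card' r hrd
  refine ⟨M, r, hMn, hr, ?_⟩
  have hlt : M < (Subgroup.zpowers x).comap (QuotientGroup.mk' M) := by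
    refine lt_of_le_of_ne (QuotientGroup.le_comap_mk' M _) (fun h => ?_)
    obtain ⟨g, rfl⟩ := QuotientGroup.mk'_surjective M x
    have hg : g ∈ (Subgroup.zpowers (QuotientGroup.mk' M g)).comap (QuotientGroup.mk' M) :=
      Subgroup.mem_zpowers _
    rw [← h] at hg
    have : QuotientGroup.mk' M g = 1 := (QuotientGroup.eq_one_iff g).2 hg
    rw [this, orderOf_one] at hx
    exact hr.ne_one hx.symm
  have htop := hM.2 _ hlt
  have : Subgroup.zpowers x = ⊤ := by
    rw [← Subgroup.map_comap_eq_self_of_surjective (QuotientGroup.mk'_surjective M)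
      (Subgroup.zpowers x), htop, Subgroup.map_top_of_surjective _
      (QuotientGroup.mk'_surjective M)]
  rw [← hx, ← Nat.card_zpowers, this, Subgroup.card_top]
  rfl

/-- Fixed points of a coprime solvable group of operators on a `p`-group: the index is a product
of powers of `p`, each congruent to one modulo a prime divisor of the order of the operators. -/
theorem exists_centralizer_factors {G : Type u} [Group G] [Finite G] {p : ℕ} (hp : p.Prime)
    (K : Subgroup G) [K.Normal] (hK : IsPGroup p K) :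
    ∀ (k : ℕ) (R : Subgroup G), Nat.card R = k → Group.IsSolvable R → ¬ p ∣ Nat.card R →
      ∃ l : List ℕ, (Subgroup.centralizer (R : Set G)).relIndex K = l.prod ∧
        ∀ f ∈ l, (∃ e, f = p ^ e ∧ p ^ e ∣ Nat.card K) ∧
          ∃ r, r.Prime ∧ r ∣ Nat.card R ∧ f ≡ 1 [MOD r] := by
  intro k
  induction k using Nat.strong_induction_on with
  | _ k ih =>
  intro R hRk hRs hpR
  by_cases hbot : R = ⊥
  · refine ⟨[], ?_, by simp⟩
    rw [List.prod_nil, Subgroup.relIndex_eq_one]
    intro x _
    rw [Subgroup.mem_centralizer_iff]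
    intro y hy
    rw [hbot, SetLike.mem_coe, Subgroup.mem_bot] at hy
    simp [hy]
  haveI : Nontrivial R := (Subgroup.nontrivial_iff_ne_bot R).2 hbot
  haveI := hRs
  obtain ⟨M, r, hMn, hr, hMi⟩ := exists_normal_prime_index R
  haveI := Fact.mk hr
  haveI := Fact.mk hp
  set R₁ : Subgroup G := M.map R.subtype with hR₁
  have hle : R₁ ≤ R := Subgroup.map_subtype_le M
  have hcard : Nat.card R₁ * r = Nat.card R := by
    rw [← hMi, hR₁, Subgroup.card_map_of_injective R.subtype_injective, Subgroup.card_mul_index]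
  have hrR : r ∣ Nat.card R := ⟨Nat.card R₁, by rw [← hcard]; ring⟩
  have hlt : Nat.card R₁ < k := by
    rw [← hRk, ← hcard]
    exact lt_mul_right Nat.card_pos hr.one_lt
  haveI : Group.IsSolvable R₁ :=
    solvable_of_solvable_injective (Subgroup.inclusion_injective hle)
  obtain ⟨l, hl, hlf⟩ := ih _ hlt R₁ rfl inferInstance
    (fun h => hpR (h.trans ⟨r, hcard.symm⟩))
  obtain ⟨P⟩ := (inferInstance : Nonempty (Sylow r R))
  have hPM : ¬ (P : Subgroup R) ≤ M := fun h => by
    refine P.not_dvd_index ?_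
    rw [← Subgroup.relIndex_mul_index h, hMi]
    exact Dvd.intro_left _ rfl
  obtain ⟨z, hzP, hzM⟩ := SetLike.not_le_iff_exists.1 hPM
  have hgen : M ⊔ Subgroup.zpowers z = ⊤ := by
    have h1 : M.relIndex (M ⊔ Subgroup.zpowers z) * (M ⊔ Subgroup.zpowers z).index = r := by
      rw [Subgroup.relIndex_mul_index le_sup_left, hMi]
    rcases (Nat.dvd_prime hr).1 ⟨_, h1.symm⟩ with h | h
    · exact absurd (Subgroup.relIndex_eq_one.1 h
        (Subgroup.mem_sup_right (Subgroup.mem_zpowers z))) hzM
    · rw [h] at h1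
      exact Subgroup.index_eq_one.1 (Nat.eq_of_mul_eq_mul_left hr.pos (by simpa using h1))
  set C₁ : Subgroup G := K ⊓ Subgroup.centralizer (R₁ : Set G) with hC₁
  -- the action of `⟨z⟩` on `C₁`
  have hstab : ∀ a ∈ Subgroup.zpowers (z : G), ∀ x ∈ C₁, a * x * a⁻¹ ∈ C₁ := by
    intro a ha x hx
    refine ⟨‹K.Normal›.conj_mem x hx.1 a, Subgroup.mem_centralizer_iff.2 fun y hy => ?_⟩
    have haR : a ∈ R := (Subgroup.zpowers_le.2 z.2) ha
    obtain ⟨w, hw, rfl⟩ := hy
    have h1 : a⁻¹ * (w : G) * a ∈ R₁ := ⟨⟨a, haR⟩⁻¹ * w * ⟨a, haR⟩, by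
      simpa using hMn.conj_mem w hw (⟨a, haR⟩⁻¹), by simp⟩
    have h2 := Subgroup.mem_centralizer_iff.1 hx.2 _ h1
    simp only [Subgroup.coe_subtype]
    have h3 : (w : G) * (a * x * a⁻¹) = a * (a⁻¹ * (w : G) * a * x) * a⁻¹ := by group
    have h4 : a * x * a⁻¹ * (w : G) = a * (x * (a⁻¹ * (w : G) * a)) * a⁻¹ := by group
    rw [h3, h4, h2]
  letI : MulAction (Subgroup.zpowers (z : G)) C₁ :=
    { smul := fun a x => ⟨a * x * (a : G)⁻¹, hstab a a.2 x x.2⟩
      one_smul := fun x => Subtype.ext (by show (1 : G) * x * (1 : G)⁻¹ = x; simp)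
      mul_smul := fun a b x => Subtype.ext (by
        show ((a : G) * b) * x * ((a : G) * b)⁻¹ = (a : G) * ((b : G) * x * (b : G)⁻¹) * (a : G)⁻¹
        group) }
  have hzpg : IsPGroup r (Subgroup.zpowers (z : G)) := by
    obtain ⟨e, he⟩ := IsPGroup.iff_card.1
      (P.isPGroup'.to_le (Subgroup.zpowers_le.2 hzP))
    exact IsPGroup.of_card (n := e)
      (by rw [Nat.card_zpowers, Subgroup.orderOf_coe, ← Nat.card_zpowers, he])
  have hfix : Nat.card (MulAction.fixedPoints (Subgroup.zpowers (z : G)) C₁) =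
      Nat.card (K ⊓ Subgroup.centralizer (R : Set G) : Subgroup G) := by
    refine Nat.card_congr
      { toFun := fun x => ⟨(x : C₁), (x : C₁).2.1, Subgroup.mem_centralizer_iff.2 fun y hy => ?_⟩
        invFun := fun x => ⟨⟨x, x.2.1, Subgroup.centralizer_le hle x.2.2⟩, fun a => Subtype.ext (by
          show (a : G) * x * (a : G)⁻¹ = x
          rw [Subgroup.mem_centralizer_iff.1 x.2.2 _ ((Subgroup.zpowers_le.2 z.2) a.2)]
          group)⟩
        left_inv := fun x => rfl
        right_inv := fun x => rfl }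
    have hx1 : (z : G) * (x : C₁) * (z : G)⁻¹ = (x : C₁) :=
      congrArg Subtype.val (x.2 ⟨z, Subgroup.mem_zpowers _⟩)
    have hxz : ((x : C₁) : G) ∈ Subgroup.centralizer ({(z : G)} : Set G) :=
      Subgroup.mem_centralizer_singleton_iff.2 (mul_inv_eq_iff_eq_mul.1 hx1).symm
    have hy' : (⟨y, hy⟩ : R) ∈ M ⊔ Subgroup.zpowers z := by rw [hgen]; trivial
    have : y ∈ R₁ ⊔ Subgroup.zpowers (z : G) := by
      have h1 := Subgroup.mem_map_of_mem R.subtype hy'
      rwa [Subgroup.map_sup, MonoidHom.map_zpowers] at h1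
    have hsub : R₁ ⊔ Subgroup.zpowers (z : G) ≤
        Subgroup.centralizer ({((x : C₁) : G)} : Set G) := by
      refine sup_le (fun w hw => Subgroup.mem_centralizer_singleton_iff.2
        (Subgroup.mem_centralizer_iff.1 (x : C₁).2.2 w hw)) (Subgroup.zpowers_le.2 ?_)
      exact Subgroup.mem_centralizer_singleton_iff.2
        (Subgroup.mem_centralizer_singleton_iff.1 hxz).symm
    exact Subgroup.mem_centralizer_singleton_iff.1 (hsub this)
  have hmod := hzpg.card_modEq_card_fixedPoints C₁
  rw [hfix] at hmod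
  set C : Subgroup G := K ⊓ Subgroup.centralizer (R : Set G) with hC
  have hCC : C ≤ C₁ := fun x hx => ⟨hx.1, Subgroup.centralizer_le hle hx.2⟩
  obtain ⟨b, hb⟩ := IsPGroup.iff_card.1 (hK.to_le (inf_le_left : C ≤ K))
  obtain ⟨a, -, ha⟩ := (Nat.dvd_prime_pow hp).1
    (show C.relIndex C₁ ∣ p ^ (Nat.card K).factorization p by
      obtain ⟨c, hc⟩ := IsPGroup.iff_card.1 (hK.to_le (inf_le_left : C₁ ≤ K))
      obtain ⟨d, hd⟩ := IsPGroup.iff_card.1 hK
      rw [hd, Nat.Prime.factorization_pow hp, Finsupp.single_eq_same]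
      exact (Subgroup.relIndex_dvd_card _ _).trans
        ((Subgroup.card_dvd_of_le (inf_le_left : C₁ ≤ K)).trans (by rw [hd])))
  have hdC₁ : p ^ a ∣ Nat.card K :=
    ha ▸ (Subgroup.relIndex_dvd_card _ _).trans (Subgroup.card_dvd_of_le inf_le_left)
  have hprod : Nat.card C₁ = Nat.card C * p ^ a := by
    rw [← ha]
    have h1 := Subgroup.relIndex_mul_relIndex (⊥ : Subgroup G) C C₁ bot_le hCC
    rwa [Subgroup.relIndex_bot_left, Subgroup.relIndex_bot_left, eq_comm] at h1
  have hone : p ^ a ≡ 1 [MOD r] := by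
    rw [hprod, hb] at hmod
    refine Nat.ModEq.cancel_left_of_coprime (c := p ^ b) ?_ (by simpa using hmod)
    exact Nat.Coprime.pow_right _ ((Nat.coprime_primes hr hp).2 fun h => hpR (h ▸ hrR))
  refine ⟨p ^ a :: l, ?_, ?_⟩
  · rw [List.prod_cons, ← hl, ← ha]
    rw [← Subgroup.inf_relIndex_right (Subgroup.centralizer (R : Set G)),
      ← Subgroup.inf_relIndex_right (Subgroup.centralizer (R₁ : Set G)),
      inf_comm (Subgroup.centralizer (R : Set G)), inf_comm (Subgroup.centralizer (R₁ : Set G))]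
    exact (Subgroup.relIndex_mul_relIndex C C₁ K hCC inf_le_left).symm
  · intro f hf
    rcases List.mem_cons.1 hf with rfl | hf
    · exact ⟨⟨a, rfl, hdC₁⟩, r, hr, hrR, hone⟩
    · obtain ⟨he, r', hr', hr'd, hmod'⟩ := hlf f hf
      exact ⟨he, r', hr', hr'd.trans ⟨r, hcard.symm⟩, hmod'⟩

/-- The number of Hall subgroups is the index of the normalizer of one of them. -/
theorem card_hall_eq_index {G : Type*} [Group G] [Finite G] [Group.IsSolvable G] {m n : ℕ}
    (hG : Nat.card G = m * n) (hmn : Nat.Coprime m n) (H : Subgroup G) (hH : Nat.card H = m) :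
    Nat.card {H : Subgroup G // Nat.card H = m} =
      (Subgroup.normalizer (H : Set G)).index := by
  letI : MulAction G (Subgroup G) := MulAction.compHom (Subgroup G) (MulAut.conj (G := G))
  have horb : {L : Subgroup G | Nat.card L = m} = MulAction.orbit G H := by
    ext L
    constructor
    · intro hL
      exact CfsgLib.Hall.hall_conj m n hG hmn H L hH hL
    · rintro ⟨g, rfl⟩
      show Nat.card (MulAut.conj g • H : Subgroup G) = m
      rw [CfsgLib.Hall.card_conj_smul, hH]
  have hst : MulAction.stabilizer G H = Subgroup.normalizer (H : Set G) := by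
    ext g
    rw [MulAction.mem_stabilizer_iff, Subgroup.mem_normalizer_iff]
    show MulAut.conj g • H = H ↔ _
    rw [SetLike.ext_iff]
    constructor
    · intro h x
      rw [← h (g * x * g⁻¹), Subgroup.mem_pointwise_smul_iff_inv_smul_mem]
      simp [MulAut.smul_def, mul_assoc]
    · intro h x
      have := h (g⁻¹ * x * g)
      rw [Subgroup.mem_pointwise_smul_iff_inv_smul_mem]
      simpa [MulAut.smul_def, mul_assoc] using this
  rw [← hst, MulAction.index_stabilizer, ← horb, ← Nat.card_coe_set_eq]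
  rfl

theorem goodFactor_lift {G : Type*} [Group G] (N : Subgroup G) [N.Normal] {m m' f : ℕ}
    (hm : m' ∣ m) (h : GoodFactor (G ⧸ N) m' f) : GoodFactor G m f := by
  obtain ⟨hpow, ⟨K, L, hK, hL, hKL, hmin, hdvd⟩, q, hq, hqm, hmod⟩ := h
  have hs := QuotientGroup.mk'_surjective N
  refine ⟨hpow, ⟨K.comap (QuotientGroup.mk' N), L.comap (QuotientGroup.mk' N), hK.comap _,
    hL.comap _, (Subgroup.comap_lt_comap_of_surjective hs).2 hKL, ?_, ?_⟩,
    q, hq, hqm.trans hm, hmod⟩
  · intro M hM h1 h2
    have hNM : N ≤ M := le_trans (QuotientGroup.le_comap_mk' N K) h1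
    have hMc : (M.map (QuotientGroup.mk' N)).comap (QuotientGroup.mk' N) = M := by
      rw [QuotientGroup.comap_map_mk', sup_eq_right.2 hNM]
    rcases hmin _ (hM.map _ hs)
      ((Subgroup.map_comap_eq_self_of_surjective hs K).symm.le.trans (Subgroup.map_mono h1))
      (Subgroup.map_le_iff_le_comap.2 h2) with h | h
    · exact Or.inl (by rw [← hMc, h])
    · exact Or.inr (by rw [← hMc, h])
  · rwa [Subgroup.relIndex_comap, Subgroup.map_comap_eq_self_of_surjective hs]

theorem hall_count_aux : ∀ (k : ℕ) {G : Type u} [Group G] [Finite G] [Group.IsSolvable G],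
    Nat.card G = k → ∀ m n : ℕ, Nat.card G = m * n → Nat.Coprime m n →
      ∃ l : List ℕ, Nat.card {H : Subgroup G // Nat.card H = m} = l.prod ∧
        ∀ f ∈ l, GoodFactor G m f := by
  intro k
  induction k using Nat.strong_induction_on with
  | _ k ih =>
  intro G _ _ _ hk m n hG hmn
  rcases subsingleton_or_nontrivial G with hsub | hnt
  · refine ⟨[], ?_, by simp⟩
    have hm : m = 1 := by
      have h1 : Nat.card G = 1 := Nat.card_of_subsingleton 1
      exact Nat.eq_one_of_mul_eq_one_right (hG.symm.trans h1)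
    subst hm
    rw [List.prod_nil, Nat.card_eq_one_iff_exists]
    exact ⟨⟨⊥, Subgroup.card_bot⟩, fun x => Subtype.ext (Subgroup.eq_bot_of_card_eq _ x.2)⟩
  obtain ⟨K, hKmin⟩ := CfsgLib.Hall.exists_isMinNormal (G := G)
  haveI := hKmin.1
  obtain ⟨hKc, p, hp, hKp⟩ : IsMulCommutative K ∧ ∃ p, p.Prime ∧ IsPGroup p K :=
    by
      obtain ⟨p, hp, hc, hpg, -⟩ := CfsgLib.Hall.IsMinNormal.elementaryAbelian hKmin
      exact ⟨hc, p, hp, hpg⟩
  haveI := Fact.mk hp
  obtain ⟨a, ha⟩ := IsPGroup.iff_card.1 hKp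
  have ha0 : a ≠ 0 := fun h => hKmin.2.1 (Subgroup.card_eq_one.1 (by rw [ha, h, pow_zero]))
  have hs := QuotientGroup.mk'_surjective K
  have hlt : Nat.card (G ⧸ K) < k := by
    rw [← hk, Subgroup.card_eq_card_quotient_mul_card_subgroup K]
    exact lt_mul_right Nat.card_pos (ha ▸ Nat.one_lt_pow ha0 hp.one_lt)
  have hcardq : Nat.card (G ⧸ K) * Nat.card K = m * n := by
    rw [← hG, ← Subgroup.card_eq_card_quotient_mul_card_subgroup]
  obtain ⟨H, hH⟩ := CfsgLib.Hall.exists_hall m n hG hmn
  rcases (hp.dvd_mul).1 (show p ∣ m * n from hcardq ▸ Dvd.dvd.mul_left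
    (ha ▸ dvd_pow_self p ha0) _) with hpm | hpn
  · -- every Hall subgroup contains `K`
    have hpn : ¬ p ∣ n := fun h => hp.not_dvd_one (hmn ▸ Nat.dvd_gcd hpm h)
    have hKn : (Nat.card K).Coprime n :=
      ha ▸ Nat.Coprime.pow_left _ ((Nat.Prime.coprime_iff_not_dvd hp).2 hpn)
    obtain ⟨m', hm'⟩ : Nat.card K ∣ m :=
      hKn.dvd_of_dvd_mul_right (hcardq ▸ Dvd.intro_left _ rfl)
    have hcardq' : Nat.card (G ⧸ K) = m' * n := by
      have : Nat.card (G ⧸ K) * Nat.card K = m' * n * Nat.card K := by rw [hcardq, hm']; ring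
      exact Nat.eq_of_mul_eq_mul_right Nat.card_pos this
    have hm'm : m' ∣ m := hm' ▸ Dvd.intro_left _ rfl
    obtain ⟨l, hl, hlg⟩ := ih _ hlt rfl m' n hcardq' (Nat.Coprime.coprime_dvd_left hm'm hmn)
    have hcontain : ∀ L : Subgroup G, Nat.card L = m → K ≤ L := by
      intro L hL
      have h1 := CfsgLib.Hall.card_sup_mul_card_inf K L
      have hdm : Nat.card (K ⊔ L : Subgroup G) ∣ m := by
        have hd : Nat.card (K ⊔ L : Subgroup G) ∣ Nat.card K * m := ⟨_, by rw [h1, hL]⟩
        have hc : (Nat.card (K ⊔ L : Subgroup G)).Coprime n :=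
          Nat.Coprime.coprime_dvd_left hd (Nat.Coprime.mul_left hKn hmn)
        exact hc.dvd_of_dvd_mul_right (hG ▸ Subgroup.card_subgroup_dvd_card _)
      have : L = K ⊔ L := Subgroup.eq_of_le_of_card_ge le_sup_right
        (by rw [hL]; exact Nat.le_of_dvd (hL ▸ Nat.card_pos) hdm)
      exact this ▸ le_sup_left
    refine ⟨l, ?_, fun f hf => goodFactor_lift K hm'm (hlg f hf)⟩
    rw [← hl]
    refine Nat.card_congr
      { toFun := fun L => ⟨(L : Subgroup G).map (QuotientGroup.mk' K), ?_⟩
        invFun := fun L => ⟨(L : Subgroup (G ⧸ K)).comap (QuotientGroup.mk' K), ?_⟩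
        left_inv := fun L => Subtype.ext (by
          show ((L : Subgroup G).map (QuotientGroup.mk' K)).comap (QuotientGroup.mk' K) = _
          rw [QuotientGroup.comap_map_mk', sup_eq_right.2 (hcontain L L.2)])
        right_inv := fun L => Subtype.ext (Subgroup.map_comap_eq_self_of_surjective hs L) }
    · have h1 := CfsgLib.Hall.card_comap_mk' K ((L : Subgroup G).map (QuotientGroup.mk' K))
      rw [QuotientGroup.comap_map_mk', sup_eq_right.2 (hcontain L L.2)] at h1
      have h2 := L.2.symm.trans h1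
      exact Nat.eq_of_mul_eq_mul_right Nat.card_pos
        (h2.symm.trans (hm'.trans (mul_comm _ _)))
    · rw [CfsgLib.Hall.card_comap_mk', L.2, hm', mul_comm]
  · -- the fibres are the complements of `K`
    have hpm : ¬ p ∣ m := fun h => hp.not_dvd_one (hmn ▸ Nat.dvd_gcd h hpn)
    have hKm : (Nat.card K).Coprime m :=
      ha ▸ Nat.Coprime.pow_left _ ((Nat.Prime.coprime_iff_not_dvd hp).2 hpm)
    obtain ⟨n', hn'⟩ : Nat.card K ∣ n :=
      hKm.dvd_of_dvd_mul_left (hcardq ▸ Dvd.intro_left _ rfl)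
    have hcardq' : Nat.card (G ⧸ K) = m * n' := by
      have : Nat.card (G ⧸ K) * Nat.card K = m * n' * Nat.card K := by rw [hcardq, hn']; ring
      exact Nat.eq_of_mul_eq_mul_right Nat.card_pos this
    have hmn' : Nat.Coprime m n' :=
      Nat.Coprime.coprime_dvd_right (hn' ▸ Dvd.intro_left _ rfl) hmn
    obtain ⟨l, hl, hlg⟩ := ih _ hlt rfl m n' hcardq' hmn'
    have hKH : K ⊓ H = ⊥ := CfsgLib.Hall.inf_eq_bot_of_coprime_card (by rw [hH]; exact hKm)
    obtain ⟨l', hl', hlg'⟩ := exists_centralizer_factors hp K hKp _ H rfl inferInstance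
      (by rw [hH]; exact hpm)
    refine ⟨l' ++ l, ?_, ?_⟩
    · set Hq := H.map (QuotientGroup.mk' K) with hHq
      have hcardHq : Nat.card Hq = m := by
        have h1 := CfsgLib.Hall.card_comap_mk' K Hq
        have h2 := CfsgLib.Hall.card_sup_mul_card_inf K H
        rw [hHq, QuotientGroup.comap_map_mk'] at h1
        rw [hKH, Subgroup.card_bot, mul_one, h1, hH, mul_comm (Nat.card K)] at h2
        exact Nat.eq_of_mul_eq_mul_right Nat.card_pos h2
      rw [card_hall_eq_index hG hmn H hH, List.prod_append, ← hl', ← hl,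
        card_hall_eq_index hcardq' hmn' Hq hcardHq]
      set N := Subgroup.normalizer (H : Set G) with hN
      -- Frattini argument
      have hcomap : (Subgroup.normalizer (Hq : Set (G ⧸ K))).comap (QuotientGroup.mk' K) =
          K ⊔ N := by
        apply le_antisymm
        · intro g hg
          have hgKH : ∀ x ∈ H, g * x * g⁻¹ ∈ K ⊔ H := by
            intro x hx
            rw [← QuotientGroup.comap_map_mk' K H, Subgroup.mem_comap, map_mul, map_mul, map_inv]
            exact ((Subgroup.mem_normalizer_iff.1 hg) _).1 ⟨x, hx, rfl⟩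
          have hle : K ⊔ (MulAut.conj g • H) ≤ K ⊔ H := sup_le le_sup_left (by
            rintro _ ⟨x, hx, rfl⟩
            exact hgKH x hx)
          have hcg : Nat.card (MulAut.conj g • H : Subgroup G) = Nat.card H :=
            CfsgLib.Hall.card_conj_smul g H
          have hKg : K ⊓ (MulAut.conj g • H) = ⊥ :=
            CfsgLib.Hall.inf_eq_bot_of_coprime_card (by rw [hcg, hH]; exact hKm)
          have hsup : K ⊔ H = K ⊔ (MulAut.conj g • H) := by
            refine (Subgroup.eq_of_le_of_card_ge hle (le_of_eq ?_)).symm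
            have h2 := CfsgLib.Hall.card_sup_mul_card_inf K H
            have h3 := CfsgLib.Hall.card_sup_mul_card_inf K (MulAut.conj g • H)
            rw [hKH, Subgroup.card_bot, mul_one] at h2
            rw [hKg, Subgroup.card_bot, mul_one, hcg] at h3
            rw [h2, h3]
          obtain ⟨c, hc, hce⟩ := CfsgLib.Hall.exists_conj_eq_of_sup_eq K H (MulAut.conj g • H)
            Subgroup.le_normalizer_of_normal Subgroup.le_normalizer_of_normal
            (by rw [hH]; exact hKm) (by rw [hcg, hH]; exact hKm) hsup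
          have hcg' : c⁻¹ * g ∈ N := by
            rw [hN, Subgroup.mem_normalizer_iff]
            have hfix : MulAut.conj (c⁻¹ * g) • H = H := by
              rw [map_mul, mul_smul, ← hce, map_inv, inv_smul_smul]
            intro x
            conv_rhs => rw [← hfix, Subgroup.mem_pointwise_smul_iff_inv_smul_mem]
            simp [MulAut.smul_def, mul_assoc]
          have : g = c * (c⁻¹ * g) := by group
          rw [this]
          exact Subgroup.mul_mem_sup hc hcg'
        · refine sup_le (fun g hg => ?_) (fun g hg => ?_)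
          · rw [Subgroup.mem_comap]
            show (g : G ⧸ K) ∈ _
            rw [(QuotientGroup.eq_one_iff g).2 hg]
            exact Subgroup.one_mem _
          · exact (Subgroup.le_normalizer_map (QuotientGroup.mk' K)) ⟨g, hg, rfl⟩
      rw [← Subgroup.index_comap_of_surjective _ hs, hcomap,
        ← Subgroup.relIndex_mul_index (le_sup_right : N ≤ K ⊔ N)]
      congr 1
      have hinf : N ⊓ K = Subgroup.centralizer (H : Set G) ⊓ K := by
        apply le_antisymm
        · rintro g ⟨hg, hgK⟩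
          refine ⟨Subgroup.mem_centralizer_iff.2 fun x hx => ?_, hgK⟩
          have h1 : g * x * g⁻¹ * x⁻¹ ∈ K ⊓ H := by
            refine ⟨?_, H.mul_mem ((Subgroup.mem_normalizer_iff.1 hg x).1 hx) (H.inv_mem hx)⟩
            have : g * x * g⁻¹ * x⁻¹ = g * (x * g⁻¹ * x⁻¹) := by group
            rw [this]
            exact K.mul_mem hgK (hKmin.1.conj_mem _ (K.inv_mem hgK) x)
          rw [hKH, Subgroup.mem_bot, mul_inv_eq_one, mul_inv_eq_iff_eq_mul] at h1
          exact h1.symm
        · exact inf_le_inf_right K (by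
            intro g hg
            rw [hN, Subgroup.mem_normalizer_iff]
            intro x
            constructor <;> intro hx
            · rw [← Subgroup.mem_centralizer_iff.1 hg x hx]; simpa using hx
            · have h2 := Subgroup.mem_centralizer_iff.1 hg _ hx
              have h3 : g * x * g⁻¹ = x := by
                calc g * x * g⁻¹ = g⁻¹ * (g * (g * x * g⁻¹)) := by group
                  _ = g⁻¹ * (g * x * g⁻¹ * g) := by rw [h2]
                  _ = x := by group
              rwa [h3] at hx)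
      have e1 := CfsgLib.Hall.card_sup_mul_card_inf K N
      have e2 := Subgroup.relIndex_mul_relIndex (⊥ : Subgroup G) N (K ⊔ N) bot_le le_sup_right
      have e3 := Subgroup.relIndex_mul_relIndex (⊥ : Subgroup G) (N ⊓ K) K bot_le inf_le_right
      simp only [Subgroup.relIndex_bot_left] at e2 e3
      rw [← Subgroup.inf_relIndex_right (Subgroup.centralizer (H : Set G)), ← hinf]
      apply Nat.eq_of_mul_eq_mul_left
        (Nat.mul_pos Nat.card_pos Nat.card_pos : 0 < Nat.card N * Nat.card (N ⊓ K : Subgroup G))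
      calc Nat.card N * Nat.card (N ⊓ K : Subgroup G) * N.relIndex (K ⊔ N)
          = Nat.card N * N.relIndex (K ⊔ N) * Nat.card (K ⊓ N : Subgroup G) := by
            rw [inf_comm N K]; ring
        _ = Nat.card K * Nat.card N := by rw [e2, e1]
        _ = Nat.card (N ⊓ K : Subgroup G) * (N ⊓ K).relIndex K * Nat.card N := by rw [e3]
        _ = _ := by ring
    · intro f hf
      rcases List.mem_append.1 hf with hf | hf
      · obtain ⟨⟨e, rfl, hed⟩, r, hr, hrd, hmod⟩ := hlg' f hf
        refine ⟨⟨p, e, hp, rfl⟩, ⟨⊥, K, inferInstance, hKmin.1,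
          bot_lt_iff_ne_bot.2 hKmin.2.1, fun M hM _ hle => hKmin.2.2 M hM hle, ?_⟩,
          r, hr, hH ▸ hrd, hmod⟩
        rwa [Subgroup.relIndex_bot_left]
      · exact goodFactor_lift K dvd_rfl (hlg f hf)

theorem main {G : Type*} [Group G] [Finite G] [Group.IsSolvable G] (m n : ℕ)
    (hG : Nat.card G = m * n) (hmn : Nat.Coprime m n) :
    ∃ (k : ℕ) (f : Fin k → ℕ), Nat.card {H : Subgroup G // Nat.card H = m} = ∏ i, f i ∧
      ∀ i, GoodFactor G m (f i) := by
  obtain ⟨l, hl, hg⟩ := hall_count_aux _ rfl m n hG hmn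
  refine ⟨l.length, fun i => l.get i, ?_, fun i => hg _ (l.get_mem i)⟩
  rw [hl, ← List.prod_ofFn, List.ofFn_get]

end Cfsg.Agent.HallCount
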